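import Cfsg.Agent.LThreeTwE6.GeoInst
import Cfsg.Agent.LThreeTwE6.NormPair
import Cfsg.Agent.LThreeTwE6.UniMain
import Cfsg.Agent.LThreeTwE6.Par

/-!
# Elements of order three of `²E₆(2)` commuting with an involution commute with a root involution (helper66)
-/

set_option autoImplicit false

namespace Cfsg.Agent.LThreeTwE6

open Subgroup Cfsg Cfsg.Lie
open Cfsg.Agent.BabyU (rootClass)

variable {K : Type} [Field K] [Fintype K]

/-- an element of order three commuting with an involution commutes with a root involution -/
theorem exists_root_comm (hK : Fintype.card K = 4) {x t : ↥(twistedE6 K 2)} (hx : orderOf x = 3) (ht : orderOf t = 2)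
    (h : t * x = x * t) : ∃ r ∈ rootClass K, x * r = r * x := by
  have hF : Fintype.card K = 2 ^ 2 := hK
  obtain ⟨-, φ, F⟩ := TwoESix.LeviA.exists_four K hK
  have hG := GeoInst.geo F hF
  have hU := Uni.uniFacts hF
  exact Par.exists_root_comm hK (fun x r s hx hr hs ho h1 h2 => norm_pair hG.facts hU hr hs ho hx h1 h2) hx ht h

/-- an element of order three with centralizer of even order commutes with a root involution -/
theorem exists_root_comm' (hK : Fintype.card K = 4) {x : ↥(twistedE6 K 2)} (hx : orderOf x = 3)
    (h : Even (Nat.card ↥(centralizer ({x} : Set ↥(twistedE6 K 2))))) : ∃ r ∈ rootClass K, x * r = r * x := by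
  have : Finite ↥(twistedE6 K 2) := by
    have := Finite.of_fintype K
    infer_instance
  have : Fact (Nat.Prime 2) := ⟨Nat.prime_two⟩
  obtain ⟨⟨t, ht⟩, ht2⟩ := exists_prime_orderOf_dvd_card' (G := ↥(centralizer ({x} : Set ↥(twistedE6 K 2)))) 2
    h.two_dvd
  refine exists_root_comm hK hx (t := t) ?_ (mem_centralizer_singleton_iff.1 ht)
  exact (Subgroup.orderOf_coe (⟨t, ht⟩ : ↥(centralizer ({x} : Set ↥(twistedE6 K 2))))).trans ht2

end Cfsg.Agent.LThreeTwE6
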